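import Cfsg.Agent.H11.MeoU
import Cfsg.Agent.H9.SLBasic

/-! Elements commuting with an element of order `p` in a projective matrix group. -/

set_option autoImplicit false

namespace Cfsg.Agent.H11

theorem minimalPeriod_add_two_le {α : Type*} {φ : α → α} (hφ : Function.Injective φ)
    {s : Multiset α} (hs : s.map φ = s) (h1 : ¬ s.Nodup) (h4 : 4 ≤ s.card) {x : α} (hx : x ∈ s) :
    0 < Function.minimalPeriod φ x ∧ Function.minimalPeriod φ x + 2 ≤ s.card := by
  classical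
  have h0 := H67.mem_periodicPts_of_map_eq hφ hs hx
  refine ⟨Function.minimalPeriod_pos_of_mem_periodicPts h0, ?_⟩
  rw [Multiset.nodup_iff_count_le_one] at h1
  push Not at h1
  obtain ⟨y, hy⟩ := h1
  by_cases h : y ∈ H67.orb φ x
  · obtain ⟨i, rfl⟩ := (H67.mem_orb_iff h0 y).1 h
    rw [H67.count_iterate hφ hs] at hy
    obtain ⟨R, h2, -⟩ := exists_nsmul_orb hφ hs hx hy
    have h3 := congrArg Multiset.card h2
    rw [Multiset.card_add, Multiset.card_nsmul, H67.card_orb] at h3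
    omega
  · obtain ⟨R, h2, -⟩ := exists_nsmul_orb hφ hs hx (Multiset.count_pos.2 hx)
    have h3 := congrArg Multiset.card h2
    rw [h2, Multiset.count_add, Multiset.count_nsmul, Multiset.count_eq_zero_of_notMem h] at hy
    rw [Multiset.card_add, Multiset.card_nsmul, H67.card_orb] at h3
    have := R.count_le_card y
    omega

theorem exists_ev_of_commute {F : Type*} [Field F] (Ω : Type*) [Field Ω] [Algebra F Ω]
    [IsAlgClosed Ω] {ι : Type*} [Fintype ι] [DecidableEq ι] (p : ℕ) [hp : Fact p.Prime] [CharP F p]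
    {G : Type*} [Group G] [Finite G] (ρ : G →* Matrix ι ι F) (hρ : Function.Injective ρ) {e : ℕ}
    (hZ : ∀ z ∈ Subgroup.center G, z ^ e = 1) (hpe : ¬ p ∣ e) {a b : G ⧸ Subgroup.center G}
    (ha : orderOf a = p) (hab : Commute a b) {r : ℕ} (hr : r.Prime) (hrb : r ∣ orderOf b)
    (hrp : r ≠ p) (hre : ¬ r ∣ e) :
    ∃ g, ¬ (H67.ev Ω (ρ g)).Nodup ∧ ∃ x ∈ H67.ev Ω (ρ g), orderOf x = r := by
  have h1 := orderOf_pow_orderOf_div (orderOf_pos b).ne' hrb
  have hc := (Nat.coprime_primes hr hp.out).2 hrp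
  obtain ⟨g, hg⟩ := (H67.mem_range_orderOf_mk_iff hZ (m := r * p) (Nat.Coprime.mul_left
    ((Nat.Prime.coprime_iff_not_dvd hr).2 hre) ((Nat.Prime.coprime_iff_not_dvd hp.out).2 hpe))).1
    ⟨_, by rw [(hab.symm.pow_left _).orderOf_mul_eq_mul_orderOf_of_coprime (by rwa [h1, ha]), h1, ha]⟩
  rw [← orderOf_injective ρ hρ] at hg
  obtain ⟨h2, h3, h4⟩ := H67.pow_ne_one_of_orderOf hr hp.out hg
  obtain ⟨h5, x, h6, h7, h8⟩ := H67.ev_of_order_mul_char Ω p hc h2 h3 h4
  haveI := Fact.mk hr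
  exact ⟨g, h5, x, h6, orderOf_eq_prime h7 h8⟩

end Cfsg.Agent.H11
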