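import Cfsg.Agent.H11.OOdd
import Cfsg.Agent.H99.OTens

/-! Four geometric subgroups of orthogonal groups over the field with three elements that are
not maximal. -/

set_option autoImplicit false
set_option linter.unusedSectionVars false

namespace Cfsg.Agent.H11

open QuadraticMap Matrix Cfsg.Geo Cfsg.Agent.H98
open scoped MatrixGroups Kronecker commutatorElement

variable {ι : Type} [Fintype ι] [DecidableEq ι] {F : Type*} [Field F]

/-- The matrices mapping a set of vectors into itself. -/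
def setStab [Finite F] (S : Set (ι → F)) : Subgroup (GL ι F) where
  carrier := {g | ∀ v ∈ S, (g : Matrix ι ι F) *ᵥ v ∈ S}
  mul_mem' {a b} ha hb v hv := by rw [Units.val_mul, ← mulVec_mulVec]; exact ha _ (hb v hv)
  one_mem' v hv := by simpa using hv
  inv_mem' {g} hg v hv := by
    obtain ⟨w, hw, rfl⟩ := (((S.toFinite.injOn_iff_bijOn_of_mapsTo
      (f := fun v => (g : Matrix ι ι F) *ᵥ v) hg).1 (gl_mulVec_injective g).injOn).surjOn hv)
    rwa [inv_mulVec_mulVec]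

variable {Q : QuadraticForm F (ι → F)}

theorem ND.between [Finite F] (h : ND Q) (hd : 5 ≤ Fintype.card ι) {X : Subgroup (GL ι F)}
    (S : Set (ι → F)) (hS : ∀ g ∈ X ⊓ omegaGL Q, ∀ v ∈ S, (g : Matrix ι ι F) *ᵥ v ∈ S)
    {g : OG Q} (hg : g ∈ commutator (OG Q)) (hgS : ∀ v ∈ S, ap g v ∈ S) (hgX : toGL Q g ∉ X)
    {u w : ι → F} (hu : u ∈ S) (hu0 : u ≠ 0) (hw : w ∉ S) (hw0 : w ≠ 0) (e : Q u = Q w) :
    ∃ K, X ⊓ omegaGL Q < K ∧ K < omegaGL Q := by
  refine ⟨setStab S ⊓ omegaGL Q, lt_of_le_of_ne (le_inf hS inf_le_right) fun e => hgX ?_,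
    lt_of_le_of_ne inf_le_right fun e' => h.not_le_of_set hd S (X := setStab S) (fun _ hg => hg)
      hu hu0 hw hw0 e (inf_eq_right.1 e')⟩
  have : toGL Q g ∈ setStab S ⊓ omegaGL Q :=
    ⟨fun v hv => by rw [toGL_mulVec]; exact hgS v hv, toGL_mem_omega.2 hg⟩
  rw [← e] at this
  exact this.1

theorem eq_zero_of_nondegOn {W : Submodule F (ι → F)} (hW : IsNondegenerateOn (polar Q) W)
    {x : ι → F} (hx : x ∈ W) (h : ∀ y ∈ W, polar Q x y = 0) : x = 0 := by
  by_contra h0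
  obtain ⟨y, hy, hxy⟩ := (hW x hx h0).2
  exact hxy (h y hy)

theorem exists_mem_perp (Q : QuadraticForm F (ι → F)) {W : Submodule F (ι → F)}
    (hW : 2 ≤ Module.finrank F W) (v : ι → F) : ∃ z ∈ W, z ≠ 0 ∧ polar Q v z = 0 := by
  have := H99.finrank_le_inf_perp Q W v
  have h0 : W ⊓ LinearMap.ker (polarBilin Q v) ≠ ⊥ := by
    intro e; rw [e, finrank_bot] at this; omega
  obtain ⟨z, hz, hz0⟩ := Submodule.exists_mem_ne_zero_of_ne_bot h0
  exact ⟨z, hz.1, hz0, hz.2⟩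

theorem ND.nonmax_plane [Fintype F] (h : ND Q) (hq : Fintype.card F = 3) (hd : 5 ≤ Fintype.card ι)
    {W : Submodule F (ι → F)} (hW : Module.finrank F W = 2) (hn : IsNondegenerateOn (polar Q) W)
    (hp : IsPlusTypeOn Q W) : ∃ K, subspaceStabilizer W ⊓ omegaGL Q < K ∧ K < omegaGL Q := by
  obtain ⟨v, hv, hQv, hle⟩ := fix_point_of_plus_plane
    (fun _ => sq_eq_one_of_card_three hq) hW hn hp (H := subspaceStabilizer W ⊓ omegaGL Q)
    (inf_le_right.trans (omegaGL_le _)) inf_le_left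
  have hp := H9.finrank_add_finrank_perp h.sesq W
  obtain ⟨e, he, he0, hQe⟩ := exists_sing_mem (Q := Q) (H9.perp h.sesq W) (by omega)
  have heW : e ∉ W := fun a => he0 (eq_zero_of_nondegOn hn a he)
  obtain ⟨z, hz, hz0, hvz⟩ := exists_mem_perp Q hW.ge v
  obtain ⟨x, hx, hxz⟩ := (hn z hz hz0).1
  have hez : polar Q e z = 0 := he z hz
  have hv0 : v ≠ 0 := by rintro rfl; simp at hQv
  refine h.between hd (Submodule.span F {v} : Set (ι → F)) (fun g hg y hy => (hle hg y).1 hy)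
    (g := eich hQe hez) (toGL_mem_omega.1 (h.eich_mem_omega hd hQe hez)) (fun y hy => ?_)
    (fun hg => heW ?_) (u := v) (w := v + e) (Submodule.mem_span_singleton_self v) hv0
    (fun a => heW ?_) (fun a => heW ?_) ?_
  · obtain ⟨c, rfl⟩ := Submodule.mem_span_singleton.1 hy
    rw [ap_smul, ap_eich_of_perp hQe hez (by rw [polar_comm]; exact he v hv) hvz]
    exact hy
  · have := (mem_subspaceStabilizer.1 hg x).1 hx
    rw [toGL_mulVec, ap_eich, polar_comm _ x e, he x hx] at this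
    simp only [zero_smul, add_zero, mul_zero, sub_zero] at this
    exact (W.smul_mem_iff hxz).1 (by simpa using W.sub_mem hx this)
  · simpa using W.sub_mem ((Submodule.span_singleton_le_iff_mem v W).2 hv a) hv
  · rw [eq_neg_of_add_eq_zero_right a]; exact W.neg_mem hv
  · rw [Q_add, hQe, polar_comm, he v hv, add_zero, add_zero]

theorem refl_sub_mem {T : Set (ι → F)} {c : F} (hc : 2 * c ≠ 0) (hT : ∀ v ∈ T, Q v = c)
    (hneg : ∀ v ∈ T, -v ∈ T) (horth : ∀ v ∈ T, ∀ w ∈ T, polar Q v w = 0 ∨ w = v ∨ w = -v)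
    {a b : ι → F} (ha : a ∈ T) (hb : b ∈ T) (hab : polar Q a b = 0) :
    ∀ v ∈ T, ap (refl Q (a - b)) v ∈ T := by
  have h1 : Q (a - b) ≠ 0 := by rwa [Q_sub, hT a ha, hT b hb, hab, sub_zero, ← two_mul]
  have h2 := ap_refl_sub ((hT a ha).trans (hT b hb).symm) h1
  have h3 : ap (refl Q (a - b)) b = a := by
    rw [← h2, ← ap_mul, h2, refl_mul_self]; rfl
  intro v hv
  rcases horth a ha v hv with p | rfl | rfl
  · rcases horth b hb v hv with p' | rfl | rfl
    · rwa [ap_refl_of_perp (by rw [polar_comm, polar_sub_left, p, p', sub_zero])]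
    · rwa [h3]
    · rw [ap_neg, h3]; exact hneg a ha
  · rwa [h2]
  · rw [ap_neg, h2]; exact hneg b hb

theorem ND.nonmax_dec [Fintype F] (h : ND Q) (hq : Fintype.card F = 3) (hd : 7 ≤ Fintype.card ι)
    {t : ℕ} {D : Fin t → Submodule F (ι → F)} (hD : IsOrthogonalMDecomposition Q 3 D) :
    ∃ K, decompositionStabilizer D ⊓ omegaGL Q < K ∧ K < omegaGL Q := by
  have h2 : (2 : F) ≠ 0 := two_ne_zero_iff_odd.2 (by rw [hq]; decide)
  have hn := H9.mDecomp_mul_eq hD.decomp.decomp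
  have o := hD.decomp.orthogonal
  have nd := hD.decomp.nondegenerate
  obtain ⟨i₀, i₁, i₂, h01, h02⟩ : ∃ i₀ i₁ i₂ : Fin t, (i₀ ≠ i₁ ∧ i₁ ≠ i₂) ∧ i₀ ≠ i₂ :=
    ⟨⟨0, by omega⟩, ⟨1, by omega⟩, ⟨2, by omega⟩, by simp, by simp⟩
  obtain ⟨c, hc, ⟨v₀, hv₀⟩, hvw⟩ := (nd_restrict (nd i₀)).three_frame hq
    (hD.decomp.decomp.finrank_eq i₀)
  have ex : ∀ i, ∃ v ∈ D i, Q v = c := fun i => by
    obtain ⟨φ, hφ⟩ := hD.isometric i₀ i
    exact ⟨φ v₀, (φ v₀).2, (hφ v₀).trans hv₀⟩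
  have dj : ∀ i j, i ≠ j → ∀ x ∈ D i, x ∈ D j → x = 0 := fun i j hij x hi hj =>
    eq_zero_of_nondegOn (nd j) hj (o i j hij x hi)
  have ne : ∀ x, Q x = c → x ≠ 0 := by rintro _ hx rfl; exact hc (hx.symm.trans (map_zero _))
  have h2c := mul_ne_zero h2 hc
  let T : Set (ι → F) := {v | (∃ i, v ∈ D i) ∧ Q v = c}
  have horth : ∀ v ∈ T, ∀ w ∈ T, polar Q v w = 0 ∨ w = v ∨ w = -v := by
    rintro v ⟨⟨i, hi⟩, hv⟩ w ⟨⟨j, hj⟩, hw⟩
    by_cases hij : i = j
    · subst hij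
      obtain ⟨φ, hφ⟩ := hD.isometric i i₀
      rcases hvw (φ ⟨v, hi⟩) (φ ⟨w, hj⟩) ((hφ _).trans hv) ((hφ _).trans hw) with a | a | a
      · refine Or.inl ?_
        have := hφ (⟨v, hi⟩ + ⟨w, hj⟩)
        rw [map_add, Submodule.coe_add, Q_add, hφ, hφ, Submodule.coe_add, Q_add] at this
        exact (add_left_cancel this).symm.trans a
      · exact Or.inr (Or.inl (congrArg Subtype.val (φ.injective a)))
      · exact Or.inr (Or.inr (congrArg Subtype.val (φ.injective (a.trans (map_neg φ _).symm))))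
    · exact Or.inl (o i j hij v hi w hj)
  have r := fun a b => refl_sub_mem (T := T) (a := a) (b := b) h2c (fun _ hv => hv.2)
    (fun v hv => ⟨hv.1.imp fun i hi => (D i).neg_mem hi, (Q.map_neg v).trans hv.2⟩) horth
  obtain ⟨a, ha, hQa⟩ := ex i₀
  obtain ⟨b, hb, hQb⟩ := ex i₁
  obtain ⟨d, hd', hQd⟩ := ex i₂
  have hab := o _ _ h01.1 a ha b hb
  have hbd := o _ _ h01.2 b hb d hd'
  have e1 : Q (a - b) = 2 * c := by rw [Q_sub, hQa, hQb, hab]; ring
  have e2 : Q (b - d) = 2 * c := by rw [Q_sub, hQb, hQd, hbd]; ring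
  obtain ⟨z, hz, hz0, haz⟩ := exists_mem_perp Q (W := D i₀)
    (by rw [hD.decomp.decomp.finrank_eq]; omega) a
  obtain ⟨s, hs, hs0, hQs⟩ := exists_sing_mem (Q := Q) (D i₁) (hD.decomp.decomp.finrank_eq _).ge
  have fx : ∀ x ∈ D i₀, ap (refl Q (b - d)) x = x := fun x hx => ap_refl_of_perp (by
    rw [polar_sub_right, o _ _ h01.1 x hx b hb, o _ _ h02 x hx d hd', sub_zero])
  refine h.between (by omega) T ?_ (g := refl Q (a - b) * refl Q (b - d))
    (h.refl_mul_refl_mem (e1 ▸ h2c) (e1.trans e2.symm))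
    (fun v hv => by
      rw [ap_mul]
      exact r a b ⟨⟨_, ha⟩, hQa⟩ ⟨⟨_, hb⟩, hQb⟩ hab _ (r b d ⟨⟨_, hb⟩, hQb⟩ ⟨⟨_, hd'⟩, hQd⟩ hbd v hv))
    (fun hg => ?_) (u := a) (w := a + s) ⟨⟨_, ha⟩, hQa⟩ (ne a hQa) ?_ ?_ ?_
  · rintro g hg v ⟨⟨i, hi⟩, hv⟩
    obtain ⟨σ, hσ⟩ := H99.mem_of_decStab hg.1
    exact ⟨⟨_, hσ i v hi⟩, (mem_isometryGroup.1 (omegaGL_le _ hg.2) v).trans hv⟩
  · obtain ⟨σ, hσ⟩ := H99.mem_of_decStab hg
    have p := hσ i₀ a ha
    have p' := hσ i₀ z hz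
    rw [toGL_mulVec, ap_mul, fx _ ha, ap_refl_sub (hQa.trans hQb.symm) (e1 ▸ h2c)] at p
    rw [toGL_mulVec, ap_mul, fx _ hz, ap_refl_of_perp (by
      rw [polar_sub_right, polar_comm, haz, o _ _ h01.1 z hz b hb, sub_zero])] at p'
    by_cases e : i₀ = σ i₀
    · exact ne b hQb (dj _ _ h01.1 b (e ▸ p) hb)
    · exact hz0 (dj _ _ e z hz p')
  · rintro ⟨⟨i, hi⟩, -⟩
    by_cases e : i₀ = i
    · subst e
      exact hs0 (dj _ _ h01.1 s (by simpa using (D i₀).sub_mem hi ha) hs)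
    · have := o _ _ e a ha _ hi
      rw [polar_add_right, polar_self', hQa, o _ _ h01.1 a ha s hs, add_zero] at this
      exact h2c this
  · intro e
    exact hs0 (dj _ _ h01.1 s (by rw [eq_neg_of_add_eq_zero_right e]; exact (D i₀).neg_mem ha) hs)
  · rw [Q_add, hQs, o _ _ h01.1 a ha s hs, add_zero, add_zero]

theorem tp_left_cancel {α β : Type} {u u' : α → F} {v : β → F} (hv : v ≠ 0)
    (h : H9.tp u v = H9.tp u' v) : u = u' := by
  obtain ⟨j, hj⟩ := Function.ne_iff.1 hv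
  exact funext fun i => mul_right_cancel₀ hj (congrFun h (i, j))

theorem ND.nonmax_tensor [Fintype F] (h : ND Q) (hq : Fintype.card F = 3) {b : ℕ} (hb : 3 ≤ b)
    {e : ι ≃ Fin 3 × Fin b} {P : GL ι F} {f₁ : (Fin 3 → F) → (Fin 3 → F) → F}
    {f₂ : (Fin b → F) → (Fin b → F) → F} (h₁ : IsSymmetricForm f₁) (h₂ : IsSymmetricForm f₂)
    (hT : IsTensorFormStructure id (polar Q) f₁ f₂ e P) :
    ∃ K, tensorProductSubgroup 3 b e P ⊓ omegaGL Q < K ∧ K < omegaGL Q := by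
  have h2 : (2 : F) ≠ 0 := two_ne_zero_iff_odd.2 (by rw [hq]; decide)
  have hd : 5 ≤ Fintype.card ι := by rw [Fintype.card_congr e]; simp; omega
  replace h₁ := isSesq_of_symmetric h₁
  replace h₂ := isSesq_of_symmetric h₂
  have m₁ := fun x => mult_eq_one_of_three hq (by simp; decide) h₁ (x := x)
  have nd := fun u hu => H99.nondegOn_slice h₁ h₂ hT (u := u) hu
  have o := fun u v h => H99.orth_slice h₁ h₂ hT (u := u) (u' := v) h
  have hs := fun g hg x y => tensor_sim h.sesq (by omega) (by omega) h₁ h₂ hT (g := g) (x := x)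
    (y := y) (H99.le_sim_of_le_iso (omegaGL_le _) hg)
  obtain ⟨Q₁, n₁, rfl⟩ := exists_qf_of_sesq h2 h₁
  obtain ⟨c, hc, ⟨u, hu⟩, k⟩ := n₁.three_frame hq (by simp)
  have hu0 : u ≠ 0 := by rintro rfl; exact hc (hu.symm.trans (map_zero _))
  have ndu := nd u (by rw [polar_self', hu]; exact mul_ne_zero h2 hc)
  obtain ⟨u', -, hu0', huu⟩ := exists_mem_perp Q₁ (W := ⊤) (by simp) u
  obtain ⟨s, hsu, hs0, hQs⟩ := exists_sing_mem (Q := Q) _ ((H99.finrank_slice (e := e) (P := P) hu0).ge.trans' hb)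
  obtain ⟨s', hsu', hs0', hQs'⟩ := exists_sing_mem (Q := Q) _
    ((H99.finrank_slice (e := e) (P := P) hu0').ge.trans' hb)
  obtain ⟨z, hz, hzs⟩ : ∃ z ∈ H99.slice e P u ⊓ LinearMap.ker (polarBilin Q s),
      z ∉ Submodule.span F {s} := by
    by_contra! a
    have h1 := Submodule.finrank_mono (show _ ≤ Submodule.span F {s} from a)
    have h3 := H99.finrank_le_inf_perp Q (H99.slice e P u) s
    rw [finrank_span_singleton hs0] at h1
    rw [H99.finrank_slice hu0] at h3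
    omega
  have hsz : polar Q s z = 0 := hz.2
  have fx : ∀ v, polar Q₁ u v = 0 → ∀ x ∈ H99.slice e P v, ap (eich hQs hsz) x = x :=
    fun v hv x hx => ap_eich_of_perp hQs hsz (by rw [polar_comm]; exact o _ _ hv s hsu x hx)
      (by rw [polar_comm]; exact o _ _ hv z hz.1 x hx)
  have st : ∀ x ∈ H99.slice e P u, ap (eich hQs hsz) x ∈ H99.slice e P u := fun x hx => by
    rw [ap_eich]
    exact sub_mem (sub_mem (add_mem hx (Submodule.smul_mem _ _ hz.1)) (Submodule.smul_mem _ _ hsu))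
      (Submodule.smul_mem _ _ hsu)
  have dj : ∀ x ∈ H99.slice e P u, x ∈ H99.slice e P u' → x = 0 := fun x hx hx' =>
    eq_zero_of_nondegOn ndu hx fun y hy => by rw [polar_comm]; exact o _ _ huu y hy x hx'
  refine h.between hd {x | ∃ v, Q₁ v = c ∧ x ∈ H99.slice e P v} ?_ (g := eich hQs hsz)
    (toGL_mem_omega.1 (h.eich_mem_omega hd hQs hsz)) ?_ (fun hg => hzs ?_) (u := s) (w := s + s')
    ⟨u, hu, hsu⟩ hs0 ?_ ?_ ?_
  · rintro g hg _ ⟨v, hv, w, rfl⟩
    obtain ⟨x, y, hxy⟩ := mem_tensorProductSubgroup.1 hg.1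
    refine ⟨(x : Matrix _ _ F) *ᵥ v, ?_, _, (mulVec_frmV_tp' hxy v w).symm⟩
    rw [Q_eq_half h2, m₁ x (hs g hg.2 x y hxy).1, ← Q_eq_half h2, hv]
  · rintro x ⟨v, hv, hx⟩
    rcases k u v hu hv with p | rfl | rfl
    · exact ⟨v, hv, by rwa [fx v p x hx]⟩
    · exact ⟨v, hv, st x hx⟩
    · exact ⟨u, hu, st x (by rwa [H99.slice_neg] at hx)⟩
  · obtain ⟨x, y, hxy⟩ := mem_tensorProductSubgroup.1 hg
    have t := fun v w => (toGL_mulVec _ _).symm.trans (mulVec_frmV_tp' hxy v w)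
    obtain ⟨i, hi⟩ := Function.ne_iff.1 hu0'
    have t1 : ∀ (w : Fin b → F) j, u' i * w j =
        ((x : Matrix _ _ F) *ᵥ u') i * ((y : Matrix (Fin b) (Fin b) F) *ᵥ w) j :=
      fun w j => congrFun ((frmV e P).injective ((fx u' huu _ ⟨w, rfl⟩).symm.trans (t u' w))) (i, j)
    have ha : ((x : Matrix _ _ F) *ᵥ u') i ≠ 0 := fun a => hi (by
      simpa [a] using t1 (fun _ => 1) ⟨0, by omega⟩)
    have t2 : ∀ w, (y : Matrix (Fin b) (Fin b) F) *ᵥ w = (u' i / ((x : Matrix _ _ F) *ᵥ u') i) • w :=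
      fun w => funext fun j => by
        rw [Pi.smul_apply, smul_eq_mul, div_mul_eq_mul_div, t1, mul_div_cancel_left₀ _ ha]
    obtain ⟨w₀, rfl⟩ := hsu
    have t3 := t u w₀
    rw [show frmV e P (H9.tp u w₀) = H99.sliceMap e P u w₀ from rfl, ap_eich_left, t2,
      H9.tp_smul_right, ← H9.tp_smul_left] at t3
    have t4 := tp_left_cancel (by rintro rfl; exact hs0 (map_zero _)) ((frmV e P).injective t3)
    obtain ⟨_, ⟨w, rfl⟩, hw⟩ := (ndu _ ⟨w₀, rfl⟩ hs0).1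
    have t5 := t u w
    rw [t2, H9.tp_smul_right, ← H9.tp_smul_left, ← t4, ap_eich, sub_sub, ← add_smul, add_sub_assoc,
      add_eq_left, sub_eq_zero] at t5
    rw [← Submodule.smul_mem_iff _ hw]
    exact Submodule.mem_span_singleton.2 ⟨_, t5.symm⟩
  · rintro ⟨v, hv, hx⟩
    have : ¬ s + s' ∈ H99.slice e P u := fun a => hs0' (dj s' (by simpa using sub_mem a hsu) hsu')
    rcases k u v hu hv with p | rfl | rfl
    · refine hs0 (eq_zero_of_nondegOn ndu hsu fun y hy => ?_)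
      have := o _ _ p y hy _ hx
      rwa [polar_add_right, o _ _ huu y hy s' hsu', add_zero, polar_comm] at this
    · exact this hx
    · exact this (by rwa [H99.slice_neg] at hx)
  · intro a
    exact hs0' (dj s' (by rw [eq_neg_of_add_eq_zero_right a]; exact neg_mem hsu) hsu')
  · rw [Q_add, hQs', o _ _ huu s hsu s' hsu', add_zero, add_zero]

end Cfsg.Agent.H11
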